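import Cfsg.Agent.Lib.TC.G.ON
import Cfsg.Agent.Lib.TC.Fast.Bridge
import Cfsg.Agent.Lib.TC.Data.ONa.Arr
import Cfsg.Agent.Lib.TC.Data.ONa.K0
import Cfsg.Agent.Lib.TC.Data.ONa.K1
import Cfsg.Agent.Lib.TC.Data.ONa.K2
import Cfsg.Agent.Lib.TC.Data.ONa.K3
import Cfsg.Agent.Lib.TC.Data.ONa.K4
import Cfsg.Agent.Lib.TC.Data.ONa.K5
import Cfsg.Agent.Lib.TC.Data.ONa.K6
import Cfsg.Agent.Lib.TC.Data.ONa.K7
import Cfsg.Agent.Lib.TC.Data.ONa.K8
import Cfsg.Agent.Lib.TC.Data.ONa.K9
import Cfsg.Agent.Lib.TC.Data.ONa.K10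
import Cfsg.Agent.Lib.TC.Data.ONa.K11
import Cfsg.Agent.Lib.TC.Data.ONa.K12
import Cfsg.Agent.Lib.TC.Data.ONa.K13
import Cfsg.Agent.Lib.TC.Data.ONa.K14
import Cfsg.Agent.Lib.TC.Data.ONa.K15
import Cfsg.Agent.Lib.TC.Data.ONa.K16
import Cfsg.Agent.Lib.TC.Data.ONa.K17
import Cfsg.Agent.Lib.TC.Data.ONa.K18
import Cfsg.Agent.Lib.TC.Data.ONa.K19
import Cfsg.Agent.Lib.TC.Data.ONa.K20
import Cfsg.Agent.Lib.TC.Data.ONa.K21
import Cfsg.Agent.Lib.TC.Data.ONa.K22
import Cfsg.Agent.Lib.TC.Data.ONa.K23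
import Cfsg.Agent.Lib.TC.Data.ONa.K24
import Cfsg.Agent.Lib.TC.Data.ONa.K25
import Cfsg.Agent.Lib.TC.Data.ONa.K26
import Cfsg.Agent.Lib.TC.Data.ONa.K27
import Cfsg.Agent.Lib.TC.Data.ONa.K28
import Cfsg.Agent.Lib.TC.Data.ONa.K29
import Cfsg.Agent.Lib.TC.Data.ONa.K30
import Cfsg.Agent.Lib.TC.Data.ONa.K31
import Cfsg.Agent.Lib.TC.Data.ONa.K32
import Cfsg.Agent.Lib.TC.Data.ONa.K33
import Cfsg.Agent.Lib.TC.Data.ONa.K34
import Cfsg.Agent.Lib.TC.Data.ONa.K35
import Cfsg.Agent.Lib.TC.Data.ONa.K36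
import Cfsg.Agent.Lib.TC.Data.ONa.K37
import Cfsg.Agent.Lib.TC.Data.ONa.K38
import Cfsg.Agent.Lib.TC.Data.ONa.P0
import Cfsg.Agent.Lib.TC.Data.ONa.P1
import Cfsg.Agent.Lib.TC.Data.ONa.P2
import Cfsg.Agent.Lib.TC.Data.ONa.P3
import Cfsg.Agent.Lib.TC.Data.ONa.P4
import Cfsg.Agent.Lib.TC.Data.ONa.P5
import Cfsg.Agent.Lib.TC.Data.ONa.P6
import Cfsg.Agent.Lib.TC.Data.ONa.P7
import Cfsg.Agent.Lib.TC.Data.ONa.P8
import Cfsg.Agent.Lib.TC.Data.ONa.P9
import Cfsg.Agent.Lib.TC.Data.ONa.P10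
import Cfsg.Agent.Lib.TC.Data.ONa.P11
import Cfsg.Agent.Lib.TC.Data.ONa.P12
import Cfsg.Agent.Lib.TC.Data.ONa.P13
import Cfsg.Agent.Lib.TC.Data.ONa.P14
import Cfsg.Agent.Lib.TC.Data.ONa.P15
import Cfsg.Agent.Lib.TC.Data.ONa.P16
import Cfsg.Agent.Lib.TC.Data.ONa.P17
import Cfsg.Agent.Lib.TC.Data.ONa.P18
import Cfsg.Agent.Lib.TC.Data.ONa.P19
import Cfsg.Agent.Lib.TC.Data.ONa.P20
import Cfsg.Agent.Lib.TC.Data.ONa.P21
import Cfsg.Agent.Lib.TC.Data.ONa.P22
import Cfsg.Agent.Lib.TC.Data.ONa.P23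
import Cfsg.Agent.Lib.TC.Data.ONa.P24
import Cfsg.Agent.Lib.TC.Data.ONa.P25
import Cfsg.Agent.Lib.TC.Data.ONa.P26
import Cfsg.Agent.Lib.TC.Data.ONa.P27
import Cfsg.Agent.Lib.TC.Data.ONa.P28
import Cfsg.Agent.Lib.TC.Data.ONa.P29
import Cfsg.Agent.Lib.TC.Data.ONa.P30
import Cfsg.Agent.Lib.TC.Data.ONa.P31
import Cfsg.Agent.Lib.TC.Data.ONa.P32
import Cfsg.Agent.Lib.TC.Data.ONa.P33
import Cfsg.Agent.Lib.TC.Data.ONa.P34
import Cfsg.Agent.Lib.TC.Data.ONa.P35
import Cfsg.Agent.Lib.TC.Data.ONa.P36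
import Cfsg.Agent.Lib.TC.Data.ONa.P37
import Cfsg.Agent.Lib.TC.Data.ONa.P38
import Cfsg.Agent.Lib.TC.Data.ONa.P39
import Cfsg.Agent.Lib.TC.Data.ONa.P40
import Cfsg.Agent.Lib.TC.Data.ONa.P41
import Cfsg.Agent.Lib.TC.Data.ONa.P42
import Cfsg.Agent.Lib.TC.Data.ONa.P43
import Cfsg.Agent.Lib.TC.Data.ONa.P44
import Cfsg.Agent.Lib.TC.Data.ONa.P45
import Cfsg.Agent.Lib.TC.Data.ONa.P46

set_option autoImplicit false

namespace Cfsg.Agent.Lib.TC.Data.ONa

open Cfsg.Agent.Lib.TC Cfsg.Agent.Lib.TC.Fast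

open Cfsg.Spor Cfsg.Spor.ON

theorem doneK : Done Fk 197008 := by
  have h0 := Done.zero Fk
  have h1 : Done Fk 6088 := done_step h0 K0_ok rfl
  have h2 : Done Fk 11903 := done_step h1 K1_ok rfl
  have h3 : Done Fk 17936 := done_step h2 K2_ok rfl
  have h4 : Done Fk 23849 := done_step h3 K3_ok rfl
  have h5 : Done Fk 29646 := done_step h4 K4_ok rfl
  have h6 : Done Fk 35638 := done_step h5 K5_ok rfl
  have h7 : Done Fk 41473 := done_step h6 K6_ok rfl
  have h8 : Done Fk 47187 := done_step h7 K7_ok rfl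
  have h9 : Done Fk 53180 := done_step h8 K8_ok rfl
  have h10 : Done Fk 59485 := done_step h9 K9_ok rfl
  have h11 : Done Fk 65564 := done_step h10 K10_ok rfl
  have h12 : Done Fk 71723 := done_step h11 K11_ok rfl
  have h13 : Done Fk 78283 := done_step h12 K12_ok rfl
  have h14 : Done Fk 84097 := done_step h13 K13_ok rfl
  have h15 : Done Fk 89913 := done_step h14 K14_ok rfl
  have h16 : Done Fk 95462 := done_step h15 K15_ok rfl
  have h17 : Done Fk 100734 := done_step h16 K16_ok rfl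
  have h18 : Done Fk 106391 := done_step h17 K17_ok rfl
  have h19 : Done Fk 111833 := done_step h18 K18_ok rfl
  have h20 : Done Fk 117779 := done_step h19 K19_ok rfl
  have h21 : Done Fk 123642 := done_step h20 K20_ok rfl
  have h22 : Done Fk 128997 := done_step h21 K21_ok rfl
  have h23 : Done Fk 134897 := done_step h22 K22_ok rfl
  have h24 : Done Fk 140833 := done_step h23 K23_ok rfl
  have h25 : Done Fk 147568 := done_step h24 K24_ok rfl
  have h26 : Done Fk 154122 := done_step h25 K25_ok rfl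
  have h27 : Done Fk 159208 := done_step h26 K26_ok rfl
  have h28 : Done Fk 162939 := done_step h27 K27_ok rfl
  have h29 : Done Fk 166535 := done_step h28 K28_ok rfl
  have h30 : Done Fk 170036 := done_step h29 K29_ok rfl
  have h31 : Done Fk 173438 := done_step h30 K30_ok rfl
  have h32 : Done Fk 176816 := done_step h31 K31_ok rfl
  have h33 : Done Fk 180092 := done_step h32 K32_ok rfl
  have h34 : Done Fk 183333 := done_step h33 K33_ok rfl
  have h35 : Done Fk 186521 := done_step h34 K34_ok rfl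
  have h36 : Done Fk 189670 := done_step h35 K35_ok rfl
  have h37 : Done Fk 192689 := done_step h36 K36_ok rfl
  have h38 : Done Fk 195627 := done_step h37 K37_ok rfl
  have h39 : Done Fk 197008 := done_step h38 K38_ok rfl
  exact h39

theorem doneP : Done Fp 122760 := by
  have h0 := Done.zero Fp
  have h1 : Done Fp 2659 := done_step h0 P0_ok rfl
  have h2 : Done Fp 5318 := done_step h1 P1_ok rfl
  have h3 : Done Fp 7977 := done_step h2 P2_ok rfl
  have h4 : Done Fp 10636 := done_step h3 P3_ok rfl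
  have h5 : Done Fp 13295 := done_step h4 P4_ok rfl
  have h6 : Done Fp 15954 := done_step h5 P5_ok rfl
  have h7 : Done Fp 18613 := done_step h6 P6_ok rfl
  have h8 : Done Fp 21272 := done_step h7 P7_ok rfl
  have h9 : Done Fp 23931 := done_step h8 P8_ok rfl
  have h10 : Done Fp 26590 := done_step h9 P9_ok rfl
  have h11 : Done Fp 29249 := done_step h10 P10_ok rfl
  have h12 : Done Fp 31908 := done_step h11 P11_ok rfl
  have h13 : Done Fp 34567 := done_step h12 P12_ok rfl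
  have h14 : Done Fp 37226 := done_step h13 P13_ok rfl
  have h15 : Done Fp 39885 := done_step h14 P14_ok rfl
  have h16 : Done Fp 42544 := done_step h15 P15_ok rfl
  have h17 : Done Fp 45203 := done_step h16 P16_ok rfl
  have h18 : Done Fp 47862 := done_step h17 P17_ok rfl
  have h19 : Done Fp 50521 := done_step h18 P18_ok rfl
  have h20 : Done Fp 53180 := done_step h19 P19_ok rfl
  have h21 : Done Fp 55839 := done_step h20 P20_ok rfl
  have h22 : Done Fp 58498 := done_step h21 P21_ok rfl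
  have h23 : Done Fp 61157 := done_step h22 P22_ok rfl
  have h24 : Done Fp 63816 := done_step h23 P23_ok rfl
  have h25 : Done Fp 66475 := done_step h24 P24_ok rfl
  have h26 : Done Fp 69134 := done_step h25 P25_ok rfl
  have h27 : Done Fp 71793 := done_step h26 P26_ok rfl
  have h28 : Done Fp 74452 := done_step h27 P27_ok rfl
  have h29 : Done Fp 77111 := done_step h28 P28_ok rfl
  have h30 : Done Fp 79770 := done_step h29 P29_ok rfl
  have h31 : Done Fp 82429 := done_step h30 P30_ok rfl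
  have h32 : Done Fp 85088 := done_step h31 P31_ok rfl
  have h33 : Done Fp 87747 := done_step h32 P32_ok rfl
  have h34 : Done Fp 90406 := done_step h33 P33_ok rfl
  have h35 : Done Fp 93065 := done_step h34 P34_ok rfl
  have h36 : Done Fp 95724 := done_step h35 P35_ok rfl
  have h37 : Done Fp 98383 := done_step h36 P36_ok rfl
  have h38 : Done Fp 101042 := done_step h37 P37_ok rfl
  have h39 : Done Fp 103701 := done_step h38 P38_ok rfl
  have h40 : Done Fp 106360 := done_step h39 P39_ok rfl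
  have h41 : Done Fp 109019 := done_step h40 P40_ok rfl
  have h42 : Done Fp 111678 := done_step h41 P41_ok rfl
  have h43 : Done Fp 114337 := done_step h42 P42_ok rfl
  have h44 : Done Fp 116996 := done_step h43 P43_ok rfl
  have h45 : Done Fp 119655 := done_step h44 P44_ok rfl
  have h46 : Done Fp 122314 := done_step h45 P45_ok rfl
  have h47 : Done Fp 122760 := done_step h46 P46_ok rfl
  exact h47

noncomputable def cert : Cert := mkCert 9 8 18 262143 E2 (wordA words) 30 36 (197008 * 9) R2 pk2 38 5 31 6 63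

def subsL : List (FreeGroup Gen) := [a,b,c,d,e,f]

theorem hsubs (s : FreeGroup Gen) : s ∈ ({a, b, c, d, e, f} : Set (FreeGroup Gen)) ↔ s ∈ subsL := by
  simp [subsL]

theorem hsubW : subW = subsL.map (encW G.ON.sys.code G.ON.sys.inv) := by decide +kernel

noncomputable def A : SubWords G.ON.sys ({a, b, c, d, e, f} : Set (FreeGroup Gen)) :=
  G.ON.sys.subWordsOfList subsL subW hsubW hsubs

def rX : List (List ℕ) := rM.map (expW macs 8)

theorem hLL : ∀ w ∈ G.ON.relWords, w ∈ rX ∨ rotR w ∈ rX ∨ isPseudo 8 G.ON.inv w = true := by decide +kernel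

theorem hrelW : ∀ w ∈ words.take 30, isPseudo 8 G.ON.inv w = true ∨ w ∈ G.ON.relWords := by decide +kernel

theorem hsubD : ∀ w ∈ words.drop 30, w ∈ subW := by decide +kernel

theorem hlett : ∀ w ∈ words, ∀ g ∈ w, g < 9 := by decide +kernel

theorem hwlS : ∀ j, j < 6 → wordAt wordsL j ∈ subW := by decide +kernel

theorem hwlL : ∀ j, j < 14 → ∀ g ∈ wordAt wordsL j, g < 8 := by decide +kernel

theorem hzero : relsOk tT subW 0 = true := by decide +kernel

theorem hnm0 : nm 0 = 0 := by decide +kernel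

theorem hinvL : ∀ g, g < 8 → numA invL g = G.ON.inv g := by decide +kernel

theorem hmacL : ∀ mb ∈ macs, ∀ g ∈ mb.2, g < 8 := by decide +kernel

theorem hrM : ∀ w ∈ rM, ∀ g ∈ w, g < 8 ∨ (macs.lookup g).isSome = true := by decide +kernel

theorem hE0 : ∀ x h, 197008 ≤ x → E2 x h = 0 := fun x _ hx => field_zero _ _ _ (guard_zero_F 197008 x _ hx)

noncomputable def checked : Sys.Checked G.ON.sys ({a, b, c, d, e, f} : Set (FreeGroup Gen)) cert where
  n := 122760
  T := tT
  R := rX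
  words := words
  nm := nm
  A := A
  WL := wordA wordsL
  nsub := 6
  nW := 14
  par := par
  gw := gw
  ivs := ivs
  hF := ptAll_of (by decide) (by decide) hinvL hmacL hrM doneP
  hn := by decide
  hL := fun r hr => hLL _ (G.ON.mem_relWords hr)
  hW := rfl
  hep := rfl
  hsz := rfl
  hnW := by decide +kernel
  hnrel := by decide +kernel
  hletters := hlett
  hrel := fun w hw => (hrelW w hw).imp id G.ON.of_mem_relWords
  hsub := hsubD
  hE := hE_of (by decide) hE0
  hcheck := hcheck_of (by decide) (wordA_letters hlett) doneK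
  hnm0 := hnm0
  hWLs := hwlS
  hWLl := hwlL
  h0 := hzero

end Cfsg.Agent.Lib.TC.Data.ONa
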