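import Cfsg.Agent.Lib.TC.Data.ONa.Arr

set_option autoImplicit false

namespace Cfsg.Agent.Lib.TC.Data.ONa

open Cfsg.Agent.Lib.TC.Fast

theorem K36_ok : allF Fk (nat_lit 189670) (nat_lit 3019) = true := by decide +kernel

end Cfsg.Agent.Lib.TC.Data.ONa
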